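import Mathlib
import Cfsg.Agent.H32.SECon

/-!
Connected Sylow 2-subgroups: `W(B)` does not depend on `B`.
-/

set_option autoImplicit false
set_option linter.all false

namespace Cfsg.Agent.H32.SE

open Subgroup SigF
open Cfsg.Agent.H32.SFB Cfsg.Agent.FourGraph
open scoped Pointwise

universe u

section P

variable {P : Type u} [Group P] [Finite P]

/-- an involution of a 2-group of rank at least 2 lies in a four-group -/
theorem exists_four (hP : IsPGroup 2 P) (hr : ¬ Cfsg.PRankLE 2 1 P) {t : P} (ht : orderOf t = 2) :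
    ∃ U : Subgroup P, IsKleinFour U ∧ t ∈ U := by
  haveI : Fact (Nat.Prime 2) := ⟨Nat.prime_two⟩
  have htt : t * t = 1 := by rw [← pow_two]; exact (sq_of_order ht).1
  have ht1 : t ≠ 1 := (sq_of_order ht).2
  by_cases htc : t ∈ Subgroup.center P
  · obtain ⟨U₀, hU₀⟩ := not_pRankLE_iff.1 hr
    obtain ⟨x, hx, hx1, hxt⟩ := exists_mem_ne (A := U₀) (by rw [hU₀.card_four]; norm_num) t
    have hxx := mul_self_of_mem hU₀ hx
    have hc : t * x = x * t := (Subgroup.mem_center_iff.1 htc x).symm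
    exact ⟨fourSubgroup t x htt hxx hc, isKleinFour_fourSubgroup ht1 hx1 (Ne.symm hxt),
      mem_fourSubgroup.2 (Or.inr (Or.inl rfl))⟩
  · haveI : Nontrivial P := ⟨⟨t, 1, ht1⟩⟩
    have hnt : Nontrivial (Subgroup.center P) := hP.center_nontrivial
    have h2 : 2 ∣ Nat.card (Subgroup.center P) := by
      obtain ⟨n, hn, hcard⟩ := (hP.to_subgroup (Subgroup.center P)).nontrivial_iff_card.1 hnt
      rw [hcard]
      exact dvd_pow_self 2 (by omega)
    obtain ⟨z, hz⟩ := exists_prime_orderOf_dvd_card' 2 h2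
    have hz2 : orderOf (z : P) = 2 := by rwa [Subgroup.orderOf_coe]
    have hzz : (z : P) * z = 1 := by rw [← pow_two]; exact (sq_of_order hz2).1
    have hc : t * z = z * t := (Subgroup.mem_center_iff.1 z.2 t)
    have hne : t ≠ z := by
      intro h
      exact htc (h ▸ z.2)
    exact ⟨fourSubgroup t z htt hzz hc, isKleinFour_fourSubgroup ht1 (sq_of_order hz2).2 hne,
      mem_fourSubgroup.2 (Or.inr (Or.inl rfl))⟩

end P

variable {G : Type u} [Group G] [Finite G]

theorem elem_of_four {U : Subgroup G} (hU : IsKleinFour U) : Cfsg.IsElementaryAbelian 2 U :=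
  ⟨IsKleinFour.isMulCommutative, fun a ha => by rw [pow_two]; exact mul_self_of_mem hU ha⟩

/-- two distinct commuting four-groups generate an elementary abelian subgroup of order at least 8 -/
theorem elem_sup_four {A B : Subgroup G} (h : FourGraph.Rel A B) (hne : A ≠ B) :
    Cfsg.IsElementaryAbelian 2 (A ⊔ B) ∧ 2 ^ 3 ≤ Nat.card ↥(A ⊔ B) := by
  haveI : Fact (Nat.Prime 2) := ⟨Nat.prime_two⟩
  have hE : Cfsg.IsElementaryAbelian 2 (A ⊔ B) :=
    elem_sup (elem_of_four h.1) (elem_of_four h.2.1) h.2.2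
  refine ⟨hE, card_pow_two_of hE (k := 2) ?_⟩
  show 4 < _
  have h1 : Nat.card A ≤ Nat.card ↥(A ⊔ B) :=
    Nat.card_le_card_of_injective _ (Subgroup.inclusion_injective le_sup_left)
  rw [h.1.card_four] at h1
  apply lt_of_le_of_ne h1
  intro h2
  apply hne
  have h3 := Subgroup.eq_of_le_of_card_ge (le_sup_left : A ≤ A ⊔ B) (by rw [← h2, h.1.card_four])
  have h4 := Subgroup.eq_of_le_of_card_ge (le_sup_right : B ≤ A ⊔ B) (by rw [← h2, h.2.1.card_four])
  exact h3.trans h4.symm

theorem rel_map {S : Subgroup G} {A B : Subgroup S} (h : FourGraph.Rel A B) : FourGraph.Rel (A.map S.subtype) (B.map S.subtype) := by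
  refine ⟨isKleinFour_map _ S.subtype_injective h.1, isKleinFour_map _ S.subtype_injective h.2.1, ?_⟩
  rintro _ ⟨a, ha, rfl⟩ _ ⟨b, hb, rfl⟩
  exact congrArg (S.subtype) (h.2.2 a ha b hb)

theorem W_rel (hc : CentConstr G) {A B : Subgroup G} (h : FourGraph.Rel A B) :
    W (fun a : G => Cfsg.centralizerPPrimeCore 2 a) A = W (fun a : G => Cfsg.centralizerPPrimeCore 2 a) B := by
  haveI : Fact (Nat.Prime 2) := ⟨Nat.prime_two⟩
  by_cases hne : A = B
  · rw [hne]
  · obtain ⟨hE, hE8⟩ := elem_sup_four h hne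
    have hcomp := cc_complete hc hE hE8
    rw [hcomp.W_eq (elem_of_four h.1) le_sup_left (by rw [h.1.card_four]; norm_num),
      hcomp.W_eq (elem_of_four h.2.1) le_sup_right (by rw [h.2.1.card_four]; norm_num)]

theorem W_four (hc : CentConstr G) {S : Subgroup G} (hS : Cfsg.IsFourConnected S) {U V : Subgroup S}
    (hU : IsKleinFour U) (hV : IsKleinFour V) :
    W (fun a : G => Cfsg.centralizerPPrimeCore 2 a) (U.map S.subtype) =
      W (fun a : G => Cfsg.centralizerPPrimeCore 2 a) (V.map S.subtype) := by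
  have h := isFourConnected_iff.1 hS U V hU hV
  induction h with
  | refl => rfl
  | tail _ h2 ih => exact (ih (h2.1)).trans (W_rel hc (rel_map h2))

theorem W_connected (hc : CentConstr G) {S : Subgroup G} (hSp : IsPGroup 2 S) (hS : Cfsg.IsFourConnected S)
    {U : Subgroup S} (hU : IsKleinFour U) {B : Subgroup G} (hBS : B ≤ S) (hB : ¬ Cfsg.PRankLE 2 1 ↥B) :
    W (fun a : G => Cfsg.centralizerPPrimeCore 2 a) B =
      W (fun a : G => Cfsg.centralizerPPrimeCore 2 a) (U.map S.subtype) := by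
  have key : ∀ V : Subgroup B, IsKleinFour V →
      W (fun a : G => Cfsg.centralizerPPrimeCore 2 a) (V.map B.subtype) =
      W (fun a : G => Cfsg.centralizerPPrimeCore 2 a) (U.map S.subtype) := by
    intro V hV
    have h1 : V.map B.subtype = (V.map (Subgroup.inclusion hBS)).map S.subtype := by
      rw [Subgroup.map_map]; rfl
    rw [h1]
    exact W_four hc hS (isKleinFour_map _ (Subgroup.inclusion_injective hBS) hV) hU
  apply le_antisymm
  · apply W_le
    intro b hb h1
    obtain ⟨z, hz, hz2⟩ := exists_inv_zpowers hSp (hBS hb) h1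
    refine (cc_mono hc hSp (hBS hb) hz hz2).trans ?_
    have hzB : z ∈ B := (Subgroup.zpowers_le.2 hb) hz
    obtain ⟨V, hV, hzV⟩ := exists_four (hSp.to_le hBS) hB (t := (⟨z, hzB⟩ : B)) (by
      rw [Subgroup.orderOf_mk]; exact hz2)
    rw [← key V hV]
    exact le_W (θ := fun a : G => Cfsg.centralizerPPrimeCore 2 a) ⟨⟨z, hzB⟩, hzV, rfl⟩ (sq_of_order hz2).2
  · obtain ⟨V, hV⟩ := not_pRankLE_iff.1 hB
    rw [← key V hV]
    exact W_mono (Subgroup.map_subtype_le V)

/-- all involutions lie in elementary abelian subgroups of order 8 -/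
theorem inEight_of_connected {S : Subgroup G} (hSp : IsPGroup 2 S) (hS : Cfsg.IsFourConnected S)
    {E : Subgroup G} (hES : E ≤ S) (hE : Cfsg.IsElementaryAbelian 2 E) (hE8 : 2 ^ 3 ≤ Nat.card E) :
    InEight S := by
  haveI : Fact (Nat.Prime 2) := ⟨Nat.prime_two⟩
  have hr : ¬ Cfsg.PRankLE 2 1 S := not_pRankLE_of_le hES (rank_of_eight hE hE8)
  -- a four-group inside `E`
  obtain ⟨V₀, hV₀, hV₀E⟩ := not_pRankLE_subgroup_iff.1 (rank_of_eight hE hE8)
  have hV₁ : IsKleinFour (V₀.subgroupOf S) := isKleinFour_subgroupOf hV₀ (hV₀E.trans hES)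
  have key : ∀ U : Subgroup S, Relation.ReflTransGen FourGraph.Rel U (V₀.subgroupOf S) →
      ∃ F : Subgroup G, U.map S.subtype ≤ F ∧ F ≤ S ∧ Cfsg.IsElementaryAbelian 2 F ∧ 2 ^ 3 ≤ Nat.card F := by
    intro U h
    induction h using Relation.ReflTransGen.head_induction_on with
    | refl =>
      refine ⟨E, ?_, hES, hE, hE8⟩
      rw [Subgroup.map_subgroupOf_eq_of_le (hV₀E.trans hES)]
      exact hV₀E
    | @head A B h1 h2 ih =>
      by_cases hne : A = B
      · rw [hne]; exact ih
      · have h3 := rel_map h1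
        have hne' : A.map S.subtype ≠ B.map S.subtype := by
          intro h
          exact hne (Subgroup.map_injective S.subtype_injective h)
        obtain ⟨hF, hF8⟩ := elem_sup_four h3 hne'
        exact ⟨_, le_sup_left, sup_le (Subgroup.map_subtype_le A) (Subgroup.map_subtype_le B), hF, hF8⟩
  intro t ht ht2
  obtain ⟨U, hU, htU⟩ := exists_four hSp hr (t := (⟨t, ht⟩ : S)) (by rw [Subgroup.orderOf_mk]; exact ht2)
  obtain ⟨F, hUF, hFS, hF, hF8⟩ := key U (isFourConnected_iff.1 hS U _ hU hV₁)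
  exact ⟨F, hUF ⟨⟨t, ht⟩, htU, rfl⟩, hFS, hF, hF8⟩

end Cfsg.Agent.H32.SE
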