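import Mathlib
import Cfsg.Agent.H32.SqCC

/-!
Coprime action of a noncyclic group of order `q^2` with abelian centralizers: solvability.
-/

set_option autoImplicit false
set_option linter.all false

namespace Cfsg.Agent.H32.SqAct

open Subgroup
open scoped commutatorElement Pointwise

universe u

theorem AHyp.congr {X Y : Type u} [Group X] [Finite X] [Group Y] [Finite Y] {q : ℕ} {A : Subgroup X} {B : Subgroup Y}
    (h : AHyp q A) (e : A ≃* B) : AHyp q B := by
  refine ⟨h.hq, ⟨⟨fun x y => ?_⟩⟩, ?_, ?_⟩
  · haveI := h.comm
    apply e.symm.injective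
    rw [map_mul, map_mul, mul_comm']
  · rw [← h.card]; exact (Nat.card_congr e.toEquiv).symm
  · intro hc
    exact h.nc (isCyclic_of_surjective e.symm.toMonoidHom e.symm.surjective)

theorem main {q : ℕ} (n : ℕ) : ∀ (X : Type u) [Group X] [Finite X] (K A : Subgroup X), K ⊔ A = ⊤ → Nat.card K = n →
    K.Normal → AHyp q A → (Nat.card A).Coprime (Nat.card K) →
    (∀ a ∈ A, a ≠ 1 → ∀ x ∈ K, ∀ y ∈ K, x ∈ centralizer ({a} : Set X) → y ∈ centralizer ({a} : Set X) → x * y = y * x) →
    Group.IsSolvable K := by
  induction n using Nat.strong_induction_on with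
  | _ n ih =>
  intro X _ _ K A hKA hcard hK hA hcop hab
  by_contra hns
  haveI := hK
  have hAK : A ≤ normalizer (K : Set X) := le_normalizer_of_normal
  have hsol : ∀ H ≤ K, H ≠ K → A ≤ normalizer (H : Set X) → Group.IsSolvable H := by
    intro H hHK hne hAH
    set L := H ⊔ A with hL
    have hHL : H ≤ L := le_sup_left
    have hAL : A ≤ L := le_sup_right
    have hcardH : Nat.card (H.subgroupOf L) = Nat.card H := Nat.card_congr (Subgroup.subgroupOfEquivOfLe hHL).toEquiv
    have hcardA : Nat.card (A.subgroupOf L) = Nat.card A := Nat.card_congr (Subgroup.subgroupOfEquivOfLe hAL).toEquiv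
    have hlt : Nat.card (H.subgroupOf L) < n := by
      rw [hcardH, ← hcard]
      apply lt_of_le_of_ne (Nat.card_le_card_of_injective _ (Subgroup.inclusion_injective hHK))
      intro h
      exact hne (Subgroup.eq_of_le_of_card_ge hHK h.ge)
    have h1 := ih _ hlt L (H.subgroupOf L) (A.subgroupOf L) (by
        rw [← Subgroup.subgroupOf_sup hHL hAL, Subgroup.subgroupOf_self]) rfl
      ((Subgroup.normal_subgroupOf_iff_le_normalizer hHL).2 (sup_le le_normalizer hAH))
      (hA.congr (Subgroup.subgroupOfEquivOfLe hAL).symm) (by
        rw [hcardH, hcardA]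
        exact Nat.Coprime.coprime_dvd_right (Subgroup.card_dvd_of_le hHK) hcop) (by
        intro a ha ha1 x hx y hy hxa hya
        apply Subtype.ext
        refine hab a ha (fun h => ha1 (Subtype.ext h)) x (hHK hx) y (hHK hy) ?_ ?_
        · rw [mem_cen]; exact congrArg Subtype.val (mem_centralizer_singleton_iff.1 hxa)
        · rw [mem_cen]; exact congrArg Subtype.val (mem_centralizer_singleton_iff.1 hya))
    haveI := h1
    exact Group.isSolvable_of_surjective (f := (Subgroup.subgroupOfEquivOfLe hHL).toMonoidHom)
      (Subgroup.subgroupOfEquivOfLe hHL).surjective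
  have hAs : Group.IsSolvable A := by
    haveI := hA.comm
    exact Group.isSolvable_of_comm (fun a b => mul_comm' a b)
  have hchr : ∀ H ≤ K, K ≤ normalizer (H : Set X) → A ≤ normalizer (H : Set X) → H = ⊥ ∨ H = K := by
    intro H hHK hKH hAH
    by_contra hcon
    push Not at hcon
    obtain ⟨hH1, hH2⟩ := hcon
    have hHn : H.Normal := by
      rw [← Subgroup.normalizer_eq_top_iff, eq_top_iff, ← hKA]
      exact sup_le hKH hAH
    have hHs := hsol H hHK hH2 hAH
    let π := QuotientGroup.mk' H
    have hπ : Function.Surjective π := QuotientGroup.mk'_surjective H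
    have hcardK : Nat.card (K.map π) * Nat.card H = Nat.card K := by
      have h1 := Subgroup.card_mul_index (H.subgroupOf K)
      have h2 : Nat.card (H.subgroupOf K) = Nat.card H :=
        Nat.card_congr (Subgroup.subgroupOfEquivOfLe hHK).toEquiv
      have h3 : (H.subgroupOf K).index = Nat.card (K.map π) := by
        have h4 := Subgroup.index_ker (π.subgroupMap K)
        have h5 : (π.subgroupMap K).ker = H.subgroupOf K := by
          ext x
          rw [MonoidHom.mem_ker, Subgroup.mem_subgroupOf]
          constructor
          · intro h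
            have := congrArg (fun y : K.map π => (y : X ⧸ H)) h
            exact (QuotientGroup.eq_one_iff (x : X)).1 this
          · intro h
            apply Subtype.ext
            exact (QuotientGroup.eq_one_iff (x : X)).2 h
        rw [← h5, h4, MonoidHom.range_eq_top.2 (MonoidHom.subgroupMap_surjective π K), Subgroup.card_top]
      rw [← h1, h2, h3, mul_comm]
    have hH1' : 1 < Nat.card H := (Subgroup.one_lt_card_iff_ne_bot _).2 hH1
    have hlt : Nat.card (K.map π) < n := by
      rw [← hcard, ← hcardK]
      exact lt_mul_of_one_lt_right Nat.card_pos hH1'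
    have hinj : ∀ a ∈ A, π a = 1 → a = 1 := by
      intro a ha h1
      have h2 : a ∈ H := (QuotientGroup.eq_one_iff a).1 h1
      exact Cop.eq_one_of_mem_of_mem hcop ha (hHK h2)
    have hAe : AHyp q (A.map π) := by
      refine hA.congr (MulEquiv.ofBijective (π.subgroupMap A) ⟨?_, MonoidHom.subgroupMap_surjective π A⟩)
      rw [injective_iff_map_eq_one]
      intro a ha
      exact Subtype.ext (hinj a a.2 (congrArg Subtype.val ha))
    have h1 := ih _ hlt (X ⧸ H) (K.map π) (A.map π) (by
        rw [← Subgroup.map_sup, hKA, ← MonoidHom.range_eq_map, MonoidHom.range_eq_top.2 hπ]) rfl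
      (Subgroup.Normal.map inferInstance π hπ) hAe (by
        refine Nat.Coprime.coprime_dvd_left (Subgroup.card_map_dvd A π) ?_
        exact Nat.Coprime.coprime_dvd_right ⟨_, hcardK.symm⟩ hcop) (by
        rintro _ ⟨a, ha, rfl⟩ ha1
        have ha1' : a ≠ 1 := fun h => ha1 (by rw [h, map_one])
        have hlift : ∀ k ∈ K, π k ∈ centralizer ({π a} : Set (X ⧸ H)) →
            ∃ c ∈ K, c ∈ centralizer ({a} : Set X) ∧ π c = π k := by
          intro k hk hka
          have hzA : zpowers a ≤ A := zpowers_le.2 ha
          obtain ⟨c, hc, hc'⟩ := Cop.fixed_points_quotient (zpowers a) K (hzA.trans hAK)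
            (Nat.Coprime.coprime_dvd_left (Subgroup.card_dvd_of_le hzA) hcop)
            (Or.inl (Cop.isSolvable_of_le hzA hAs)) H hHK hKH (hzA.trans hAH) k hk (by
              intro b hb
              have h2 : π k ∈ centralizer (zpowers (π a) : Set (X ⧸ H)) := by
                rw [SigF.centralizer_zpowers']; exact hka
              have h3 : π b ∈ zpowers (π a) := by
                obtain ⟨j, rfl⟩ := hb
                exact ⟨j, by simp⟩
              have h4 := mem_centralizer_iff.1 h2 _ h3
              have h5 : π (b * k * b⁻¹ * k⁻¹) = 1 := by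
                rw [map_mul, map_mul, map_mul, map_inv, map_inv, h4]
                group
              exact (QuotientGroup.eq_one_iff _).1 h5)
          refine ⟨c, hc.1, ?_, ?_⟩
          · have := hc.2
            rw [mem_cen]
            exact ((mem_centralizer_iff.1 this) a (mem_zpowers a)).symm
          · exact ((QuotientGroup.eq (s := H)).2 hc').symm
        rintro _ ⟨x, hx, rfl⟩ _ ⟨y, hy, rfl⟩ hxa hya
        obtain ⟨c, hc, hca, hcx⟩ := hlift x hx hxa
        obtain ⟨d, hd, hda, hdy⟩ := hlift y hy hya
        rw [← hcx, ← hdy, ← map_mul, ← map_mul, hab a ha ha1' c hc d hd hca hda])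
    apply hns
    haveI := h1
    haveI := hHs
    refine Group.isSolvable_of_ker_le_range (Subgroup.inclusion hHK) (π.subgroupMap K) ?_
    intro x hx
    have h2 := congrArg (fun y : K.map π => (y : X ⧸ H)) (MonoidHom.mem_ker.1 hx)
    have h3 : (x : X) ∈ H := (QuotientGroup.eq_one_iff (x : X)).1 h2
    exact ⟨⟨x, h3⟩, rfl⟩
  have hfix : K ⊓ centralizer (A : Set X) = ⊥ := by
    rw [eq_bot_iff]
    intro x hx
    have h1 : K ≤ centralizer ({x} : Set X) := by
      haveI := hA.comm
      rw [← H91.genCent_eq A K hA.nc hAK hcop]
      unfold H91.genCent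
      refine iSup₂_le ?_
      intro a ha y hy
      rw [mem_cen]
      exact hab a ha.1 ha.2 y hy.1 x hx.1 hy.2 (by
        rw [mem_cen]
        exact (mem_centralizer_iff.1 hx.2 a ha.1).symm)
    set W := K ⊓ centralizer (K : Set X) with hW
    have h2 : x ∈ W := by
      refine ⟨hx.1, ?_⟩
      change x ∈ centralizer (K : Set X)
      rw [mem_centralizer_iff]
      intro y hy
      exact mem_cen.1 (h1 hy)
    rcases hchr W inf_le_left (fun g hg => normalizer_inf (le_normalizer hg) (normalizer_centralizer (le_normalizer hg)))
      (fun g hg => normalizer_inf (hAK hg) (normalizer_centralizer (hAK hg))) with h3 | h3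
    · rw [h3] at h2; exact h2
    · exfalso
      apply hns
      apply Group.isSolvable_of_comm
      intro a b
      apply Subtype.ext
      have h4 : (b : X) ∈ W := by rw [h3]; exact b.2
      exact mem_centralizer_iff.1 h4.2 (a : X) a.2
  exact Hyp.false { toAHyp := hA, normal := hK, cop := hcop, ab := hab, fix := hfix, sol := hsol, chr := hchr, ns := hns }

end Cfsg.Agent.H32.SqAct
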